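import Cfsg.Agent.H371.P4.E8
import Cfsg.Agent.H945.UF.PairU

/-!
# S3461, cross characteristic row `E₈(v)` (helper405)
-/

set_option autoImplicit false
set_option linter.unusedSectionVars false

universe u

namespace Cfsg.Agent.H405.UF

open Cfsg Cfsg.Lie Cfsg.Lie.ChevalleyDatum
open Cfsg.Agent.H378 Cfsg.Agent.H378.ExcAdj
open Cfsg.Agent.H371.CycEval
open Cfsg.Agent.H371.P4 (cop_int bounds)
open Cfsg.Agent.H371.Core (Tor tor_E8_15 tor_E8_20 tor_E8_24 tor_E8_30)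
open Cfsg.Agent.H945.UF

variable {p q : ℕ}

/-- `M` divides the order of the centralizers of the elements of prime order `r ∣ M` -/
theorem mm_dvd {S : Type u} [Group S] [Finite S] (h : CandU p q S) {N r : ℕ}
    (hrR : r ∣ mm q) (hc : ∀ x : S, orderOf x = r → Nat.card ↥(Subgroup.centralizer {x}) ∣ N) : mm q ∣ N := by
  obtain ⟨g, hg⟩ := h.elt'
  obtain ⟨k, hk⟩ := hrR
  have hR0 : 0 < mm q := h.mm_pos
  have hk0 : k ≠ 0 := by
    rintro rfl
    omega
  have hgk : orderOf (g ^ k) = r := by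
    rw [orderOf_pow' g hk0, hg, Nat.gcd_eq_right (Dvd.intro_left r hk.symm), hk]
    exact Nat.mul_div_cancel r (Nat.pos_of_ne_zero hk0)
  refine dvd_trans ?_ (hc _ hgk)
  rw [← hg]
  have hmem : g ∈ Subgroup.centralizer {g ^ k} := by
    rw [Subgroup.mem_centralizer_singleton_iff]
    exact (Commute.self_pow g k)
  rw [← Subgroup.orderOf_mk g hmem]
  exact orderOf_dvd_natCard _

/-- coprime odd numbers -/
theorem cop_two {a b : ℕ} {x y : ℤ} (ha : (a : ℤ) % 2 = 1) (h : x * a + y * b = 2) : Nat.Coprime a b := by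
  refine Nat.coprime_of_dvd fun r hr h1 h2 => ?_
  have h1' := Int.natCast_dvd_natCast.2 h1
  have h2' := Int.natCast_dvd_natCast.2 h2
  have h3 : (r : ℤ) ∣ 2 := by
    rw [← h]
    exact dvd_add (h1'.mul_left _) (h2'.mul_left _)
  have h4 : r ∣ 2 := by exact_mod_cast h3
  obtain rfl := (Nat.prime_dvd_prime_iff_eq hr Nat.prime_two).1 h4
  omega

/-- the size: `v ≥ 4` -/
theorem size_big {v q a b c e : ℕ} (hv : 4 ≤ v) (hq : q ^ 2 + 1 ≤ 2 * e) (he : e ≤ 2 * v ^ 8)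
    (ha : v ^ 8 ≤ 2 * a) (hb : v ^ 8 ≤ 2 * b) (hc : v ^ 8 ≤ 2 * c) : q ^ 5 ≤ a * b * c := by
  have h1 : q < 2 * v ^ 4 := by
    by_contra hcon
    rw [not_lt] at hcon
    have h2 : (2 * v ^ 4) ^ 2 ≤ q ^ 2 := Nat.pow_le_pow_left hcon 2
    have h3 : (2 * v ^ 4) ^ 2 = 4 * v ^ 8 := by ring
    omega
  have h2 : q ^ 5 ≤ (2 * v ^ 4) ^ 5 := Nat.pow_le_pow_left h1.le 5
  have h3 : v ^ 8 * v ^ 8 * v ^ 8 ≤ (2 * a) * (2 * b) * (2 * c) := Nat.mul_le_mul (Nat.mul_le_mul ha hb) hc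
  have h4 : 4 ^ 4 ≤ v ^ 4 := Nat.pow_le_pow_left hv 4
  have h5 : 256 * v ^ 20 ≤ v ^ 4 * v ^ 20 := Nat.mul_le_mul_right _ (by omega)
  have e1 : (2 * v ^ 4) ^ 5 = 32 * v ^ 20 := by ring
  have e2 : v ^ 8 * v ^ 8 * v ^ 8 = v ^ 4 * v ^ 20 := by ring
  have e3 : (2 * a) * (2 * b) * (2 * c) = 8 * (a * b * c) := by ring
  omega

/-- the size: `v = 3` -/
theorem size_three {q a b c e : ℕ} (hq : q ^ 2 + 1 ≤ 2 * e) (he : e ≤ 8401) (ha : 4561 ≤ a) (hb : 4561 ≤ b)
    (hc : 4561 ≤ c) : q ^ 5 ≤ a * b * c := by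
  have h1 : q ≤ 129 := by
    by_contra hcon
    have h2 : 130 ^ 2 ≤ q ^ 2 := Nat.pow_le_pow_left (by omega) 2
    omega
  have h2 : q ^ 5 ≤ 129 ^ 5 := Nat.pow_le_pow_left h1 5
  have h3 : 4561 * 4561 * 4561 ≤ a * b * c := Nat.mul_le_mul (Nat.mul_le_mul ha hb) hc
  omega

/-- **`E₈(v)`** -/
theorem row_E8 {F : Type*} [Field F] [Fintype F] {p q : ℕ} (_hpF : (p : F) ≠ 0)
    (h : CandU p q ↥(Lie.chevE8.group F)) : False := by
  obtain ⟨v, hv⟩ : ∃ v, Nat.card F = v := ⟨_, rfl⟩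
  have hv2 : 2 ≤ v := by rw [← hv]; exact Finite.one_lt_card
  have hvz : (2 : ℤ) ≤ v := by exact_mod_cast hv2
  have T15 := tor_E8_15 F
  have T20 := tor_E8_20 F
  have T24 := tor_E8_24 F
  have T30 := tor_E8_30 F
  obtain ⟨M15, hM15⟩ : ∃ M, (ev 15 (Nat.card F : ℕ)).natAbs = M := ⟨_, rfl⟩
  obtain ⟨M20, hM20⟩ : ∃ M, (ev 20 (Nat.card F : ℕ)).natAbs = M := ⟨_, rfl⟩
  obtain ⟨M24, hM24⟩ : ∃ M, (ev 24 (Nat.card F : ℕ)).natAbs = M := ⟨_, rfl⟩
  obtain ⟨M30, hM30⟩ : ∃ M, (ev 30 (Nat.card F : ℕ)).natAbs = M := ⟨_, rfl⟩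
  have h15 : (M15 : ℤ) = (v : ℤ) ^ 8 - v ^ 7 + v ^ 5 - v ^ 4 + v ^ 3 - v + 1 := by
    rw [← hM15, ← ev15, Int.natCast_natAbs, abs_of_pos (ev_pos (by norm_num) _), hv]
  have h20 : (M20 : ℤ) = (v : ℤ) ^ 8 - v ^ 6 + v ^ 4 - v ^ 2 + 1 := by
    rw [← hM20, ← ev20, Int.natCast_natAbs, abs_of_pos (ev_pos (by norm_num) _), hv]
  have h24 : (M24 : ℤ) = (v : ℤ) ^ 8 - v ^ 4 + 1 := by
    rw [← hM24, ← ev24, Int.natCast_natAbs, abs_of_pos (ev_pos (by norm_num) _), hv]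
  have h30 : (M30 : ℤ) = (v : ℤ) ^ 8 + v ^ 7 - v ^ 5 - v ^ 4 - v ^ 3 + v + 1 := by
    rw [← hM30, ← ev30, Int.natCast_natAbs, abs_of_pos (ev_pos (by norm_num) _), hv]
  rw [hM15, hv] at T15
  rw [hM20, hv] at T20
  rw [hM24, hv] at T24
  rw [hM30, hv] at T30
  have odd15 : (M15 : ℤ) % 2 = 1 := by
    rw [h15]
    have h1 : (v : ℤ) % 2 = 0 ∨ (v : ℤ) % 2 = 1 := by omega
    have key : ∀ k : ℕ, 1 ≤ k → ((v : ℤ) ^ k) % 2 = (v : ℤ) % 2 := by
      intro k hk
      rcases h1 with h1 | h1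
      · obtain ⟨t, ht⟩ : (2 : ℤ) ∣ v := Int.dvd_of_emod_eq_zero h1
        have : (2 : ℤ) ∣ (v : ℤ) ^ k := (Int.dvd_of_emod_eq_zero h1).trans (dvd_pow_self _ (by omega))
        omega
      · have : Odd ((v : ℤ) ^ k) := (Int.odd_iff.2 h1).pow
        rw [Int.odd_iff.1 this, h1]
    have k8 := key 8 (by norm_num)
    have k7 := key 7 (by norm_num)
    have k5 := key 5 (by norm_num)
    have k4 := key 4 (by norm_num)
    have k3 := key 3 (by norm_num)
    omega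
  have c1520 : Nat.Coprime M15 M20 := cop_int (x := (-1) * (v : ℤ) ^ 5 + (-1) * (v : ℤ) ^ 6 + (-1) * (v : ℤ) ^ 7)
    (y := 1 + 1 * (v : ℤ) ^ 2 + 1 * (v : ℤ) ^ 5 + 1 * (v : ℤ) ^ 7) (by rw [h15, h20]; ring)
  have c1524 : Nat.Coprime M15 M24 := cop_int (x := 1 * (v : ℤ) ^ 1 + (-1) * (v : ℤ) ^ 5 + (-1) * (v : ℤ) ^ 7)
    (y := 1 + (-1) * (v : ℤ) ^ 1 + 1 * (v : ℤ) ^ 2 + 1 * (v : ℤ) ^ 5 + (-1) * (v : ℤ) ^ 6 + 1 * (v : ℤ) ^ 7)
    (by rw [h15, h24]; ring)
  have c1530 : Nat.Coprime M15 M30 := cop_two odd15 (x := 1 + 1 * (v : ℤ) ^ 1 + 1 * (v : ℤ) ^ 2 + (-1) * (v : ℤ) ^ 5 +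
      (-1) * (v : ℤ) ^ 6 + (-1) * (v : ℤ) ^ 7)
    (y := 1 + (-1) * (v : ℤ) ^ 1 + 1 * (v : ℤ) ^ 2 + 1 * (v : ℤ) ^ 5 + (-1) * (v : ℤ) ^ 6 + 1 * (v : ℤ) ^ 7)
    (by rw [h15, h30]; ring)
  have c2024 : Nat.Coprime M20 M24 := cop_int
    (x := 2 + 1 * (v : ℤ) ^ 2 + (-2) * (v : ℤ) ^ 4 + (-2) * (v : ℤ) ^ 6)
    (y := (-1) + 1 * (v : ℤ) ^ 2 + 2 * (v : ℤ) ^ 6) (by rw [h20, h24]; ring)
  have c2030 : Nat.Coprime M20 M30 := cop_int
    (x := 1 + 1 * (v : ℤ) ^ 2 + (-1) * (v : ℤ) ^ 5 + (-1) * (v : ℤ) ^ 7)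
    (y := 1 * (v : ℤ) ^ 5 + (-1) * (v : ℤ) ^ 6 + 1 * (v : ℤ) ^ 7) (by rw [h20, h30]; ring)
  have c2430 : Nat.Coprime M24 M30 := cop_int
    (x := 1 + 1 * (v : ℤ) ^ 1 + 1 * (v : ℤ) ^ 2 + (-1) * (v : ℤ) ^ 5 + (-1) * (v : ℤ) ^ 6 + (-1) * (v : ℤ) ^ 7)
    (y := (-1) * (v : ℤ) ^ 1 + 1 * (v : ℤ) ^ 5 + 1 * (v : ℤ) ^ 7) (by rw [h24, h30]; ring)
  have B15 := bounds hvz (Or.inl h15)
  have B20 := bounds hvz (Or.inr (Or.inl h20))
  have B24 := bounds hvz (Or.inr (Or.inr (Or.inl h24)))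
  have B30 := bounds hvz (Or.inr (Or.inr (Or.inr h30)))
  obtain ⟨r, hr, hrM⟩ := h.exists_prime
  have h2mm := h.two_mm
  have hmm := h.mm_ge
  have hod : od v r = 15 ∨ od v r = 20 ∨ od v r = 24 ∨ od v r = 30 := by
    rw [← hv]
    rcases adj_E8 F hr (h.dvd_card hrM) with h1 | h1 | h1
    · exact absurd h1 (h.prime_facts hr hrM).1
    · exact absurd h1 (h.not_adj hr hrM)
    · exact h1
  have key : ∀ {e N a b c : ℕ}, od v r = e → Tor ↥(chevE8.group F) v e N →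
      (∃ g : ↥(chevE8.group F), orderOf g = a) → (∃ g : ↥(chevE8.group F), orderOf g = b) →
      (∃ g : ↥(chevE8.group F), orderOf g = c) → Nat.Coprime a N → Nat.Coprime b N → Nat.Coprime c N →
      Nat.Coprime a b → Nat.Coprime a c → Nat.Coprime b c →
      (N : ℤ) ≤ 2 * (v : ℤ) ^ 8 → (v : ℤ) ^ 8 ≤ 2 * a → (v : ℤ) ^ 8 ≤ 2 * b → (v : ℤ) ^ 8 ≤ 2 * c →
      (v = 2 → N = 151 ∨ N = 205 ∨ N = 241 ∨ N = 331) →
      (v = 3 → N ≤ 8401 ∧ 4561 ≤ a ∧ 4561 ≤ b ∧ 4561 ≤ c) → False := by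
    intro e N a b c he T ha hb hc can cbn ccn cab cac cbc hN hva hvb hvc hv2' hv3'
    have hMN : mm q ∣ N := mm_dvd h hrM (fun x hx => (T.ct r hr he x hx).dvd)
    rcases Nat.lt_or_ge v 3 with h3 | h3
    · have hN4 := hv2' (by omega)
      have hsq : q ^ 2 = q * q := sq q
      have hno : ∀ b : ℕ, b * b < q * q → q * q < (b + 1) * (b + 1) → False := by
        intro b h1 h2
        have h3 : b < q := by
          by_contra hle
          have := Nat.mul_le_mul (not_lt.1 hle) (not_lt.1 hle)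
          omega
        have h4 : q < b + 1 := by
          by_contra hle
          have := Nat.mul_le_mul (not_lt.1 hle) (not_lt.1 hle)
          omega
        omega
      rcases hN4 with rfl | rfl | rfl | rfl
      · have h5 : mm q ∈ Nat.divisors 151 := Nat.mem_divisors.2 ⟨hMN, by norm_num⟩
        have h6 : Nat.divisors 151 = {1, 151} := by decide +kernel
        rw [h6] at h5
        simp only [Finset.mem_insert, Finset.mem_singleton] at h5
        rcases h5 with h5 | h5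
        · omega
        · exact hno 17 (by omega) (by omega)
      · have h5 : mm q ∈ Nat.divisors 205 := Nat.mem_divisors.2 ⟨hMN, by norm_num⟩
        have h6 : Nat.divisors 205 = {1, 5, 41, 205} := by decide +kernel
        rw [h6] at h5
        simp only [Finset.mem_insert, Finset.mem_singleton] at h5
        rcases h5 with h5 | h5 | h5 | h5
        · omega
        · omega
        · have h7 : q = 9 := by
            have h8 : q * q = 9 * 9 := by omega
            exact Nat.mul_self_inj.1 h8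
          have := h.h4
          omega
        · exact hno 20 (by omega) (by omega)
      · have h5 : mm q ∈ Nat.divisors 241 := Nat.mem_divisors.2 ⟨hMN, by norm_num⟩
        have h6 : Nat.divisors 241 = {1, 241} := by decide +kernel
        rw [h6] at h5
        simp only [Finset.mem_insert, Finset.mem_singleton] at h5
        rcases h5 with h5 | h5
        · omega
        · exact hno 21 (by omega) (by omega)
      · have h5 : mm q ∈ Nat.divisors 331 := Nat.mem_divisors.2 ⟨hMN, by norm_num⟩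
        have h6 : Nat.divisors 331 = {1, 331} := by decide +kernel
        rw [h6] at h5
        simp only [Finset.mem_insert, Finset.mem_singleton] at h5
        rcases h5 with h5 | h5
        · omega
        · exact hno 25 (by omega) (by omega)
    · have h5 := h.triple ha hb hc (can.coprime_dvd_right hMN) (cbn.coprime_dvd_right hMN)
        (ccn.coprime_dvd_right hMN) cab cac cbc
      have hN0 : 0 < N := by
        rcases Nat.eq_zero_or_pos N with h0 | h0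
        · subst h0
          have h6 : a = 1 := by rwa [Nat.coprime_zero_right] at can
          have h7 : (3 : ℤ) ^ 8 ≤ (v : ℤ) ^ 8 := pow_le_pow_left₀ (by norm_num) (by exact_mod_cast h3) 8
          rw [h6] at hva
          norm_num at h7 hva
          omega
        · exact h0
      have h6 : q ^ 2 + 1 ≤ 2 * N := by
        rw [← h2mm]
        exact Nat.mul_le_mul_left _ (Nat.le_of_dvd hN0 hMN)
      have key2 : q ^ 5 ≤ a * b * c := by
        rcases Nat.lt_or_ge v 4 with h4 | h4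
        · obtain ⟨g1, g2, g3, g4⟩ := hv3' (by omega)
          exact size_three h6 g1 g2 g3 g4
        · exact size_big h4 h6 (by exact_mod_cast hN) (by exact_mod_cast hva) (by exact_mod_cast hvb)
            (by exact_mod_cast hvc)
      omega
  have n15 : (v = 2 → M15 = 151) ∧ (v = 3 → M15 = 4561) := by
    constructor
    · intro h2; rw [h2] at h15; norm_num at h15; omega
    · intro h2; rw [h2] at h15; norm_num at h15; omega
  have n20 : (v = 2 → M20 = 205) ∧ (v = 3 → M20 = 5905) := by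
    constructor
    · intro h2; rw [h2] at h20; norm_num at h20; omega
    · intro h2; rw [h2] at h20; norm_num at h20; omega
  have n24 : (v = 2 → M24 = 241) ∧ (v = 3 → M24 = 6481) := by
    constructor
    · intro h2; rw [h2] at h24; norm_num at h24; omega
    · intro h2; rw [h2] at h24; norm_num at h24; omega
  have n30 : (v = 2 → M30 = 331) ∧ (v = 3 → M30 = 8401) := by
    constructor
    · intro h2; rw [h2] at h30; norm_num at h30; omega
    · intro h2; rw [h2] at h30; norm_num at h30; omega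
  rcases hod with h1 | h1 | h1 | h1
  · exact key h1 T15 T20.ex T24.ex T30.ex c1520.symm c1524.symm c1530.symm c2024 c2030 c2430 B15.2 B20.1 B24.1 B30.1
      (fun h => Or.inl (n15.1 h)) (fun h => by have := n15.2 h; have := n20.2 h; have := n24.2 h; have := n30.2 h; omega)
  · exact key h1 T20 T15.ex T24.ex T30.ex c1520 c2024.symm c2030.symm c1524 c1530 c2430 B20.2 B15.1 B24.1 B30.1
      (fun h => Or.inr (Or.inl (n20.1 h)))
      (fun h => by have := n15.2 h; have := n20.2 h; have := n24.2 h; have := n30.2 h; omega)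
  · exact key h1 T24 T15.ex T20.ex T30.ex c1524 c2024 c2430.symm c1520 c1530 c2030 B24.2 B15.1 B20.1 B30.1
      (fun h => Or.inr (Or.inr (Or.inl (n24.1 h))))
      (fun h => by have := n15.2 h; have := n20.2 h; have := n24.2 h; have := n30.2 h; omega)
  · exact key h1 T30 T15.ex T20.ex T24.ex c1530 c2030 c2430 c1520 c1524 c2024 B30.2 B15.1 B20.1 B24.1
      (fun h => Or.inr (Or.inr (Or.inr (n30.1 h))))
      (fun h => by have := n15.2 h; have := n20.2 h; have := n24.2 h; have := n30.2 h; omega)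

end Cfsg.Agent.H405.UF
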